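import Mathlib
import Cfsg.Agent.Lib.Helper2.PP.Defs

/-!
S3753 (PP, helper2), package [T]: a `p`-subgroup `X` of `O`, where `C ≤ O` are normal in `M` with
`O / C` a `p`-group, which centralizes `C` modulo `O_p(M)`, lies in `O_p(M)`.
-/

set_option autoImplicit false

namespace Cfsg.Agent.Lib.Helper79.PP

open Cfsg.Agent.Lib.Helper2.PP

universe u

/-- The elements centralizing `C` modulo the normal subgroup `Q`. -/
def centModSub {M : Type u} [Group M] (C Q : Subgroup M) (hQn : Q.Normal) : Subgroup M where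
  carrier := {g | ∀ c ∈ C, g * c * g⁻¹ * c⁻¹ ∈ Q}
  mul_mem' := by
    intro g h hg hh c hc
    have e : g * h * c * (g * h)⁻¹ * c⁻¹ =
        g * (h * c * h⁻¹ * c⁻¹) * g⁻¹ * (g * c * g⁻¹ * c⁻¹) := by group
    rw [e]
    exact Q.mul_mem (hQn.conj_mem _ (hh c hc) g) (hg c hc)
  one_mem' := by
    intro c hc
    have e : (1 : M) * c * 1⁻¹ * c⁻¹ = 1 := by group
    rw [e]; exact Q.one_mem
  inv_mem' := by
    intro g hg c hc
    have e : g⁻¹ * c * g⁻¹⁻¹ * c⁻¹ = g⁻¹ * (g * c * g⁻¹ * c⁻¹)⁻¹ * g⁻¹⁻¹ := by group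
    rw [e]
    exact hQn.conj_mem _ (Q.inv_mem (hg c hc)) g⁻¹

/-- The core of [T], inside the group `M`. -/
theorem t_core {M : Type u} [Group M] [Finite M] {p : ℕ} [Fact p.Prime] (C O X : Subgroup M)
    [hCn : C.Normal] [hOn : O.Normal] (hOC : ∀ d ∈ O, ∃ k : ℕ, d ^ p ^ k ∈ C) (hXO : X ≤ O)
    (hX : IsPGroup p X) (hXC : ∀ x ∈ X, ∀ c ∈ C, x * c * x⁻¹ * c⁻¹ ∈ Cfsg.pCore p M) :
    X ≤ Cfsg.pCore p M := by
  classical
  obtain ⟨Q, hQ⟩ : ∃ Q : Subgroup M, Q = Cfsg.pCore p M := ⟨_, rfl⟩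
  rw [← hQ] at hXC ⊢
  have hQn : Q.Normal := hQ ▸ Subgroup.sSup_normal _ (fun _ h => h.1)
  have hQp : IsPGroup p Q := hQ ▸ Cfsg.Agent.Lib.Helper11.pCore_isPGroup' p M
  -- (a) the preimage `T` of the `p`-group `(QC/C)(O/C)`
  obtain ⟨π, hπ⟩ : ∃ π : M →* M ⧸ C, π = QuotientGroup.mk' C := ⟨_, rfl⟩
  have hπs : Function.Surjective π := hπ ▸ QuotientGroup.mk'_surjective C
  have hπk : ∀ g : M, π g = 1 ↔ g ∈ C := by
    intro g; rw [hπ]; exact QuotientGroup.eq_one_iff g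
  have hOp : IsPGroup p (O.map π) := by
    rintro ⟨y, hy⟩
    obtain ⟨d, hd, rfl⟩ := hy
    obtain ⟨k, hk⟩ := hOC d hd
    refine ⟨k, Subtype.ext ?_⟩
    rw [Subgroup.coe_pow, Subgroup.coe_one]
    show π d ^ p ^ k = 1
    rw [← map_pow]; exact (hπk _).mpr hk
  have hQbp : IsPGroup p (Q.map π) := hQp.map π
  have hOmn : (O.map π).Normal := Subgroup.Normal.map hOn π hπs
  have hQmn : (Q.map π).Normal := Subgroup.Normal.map hQn π hπs
  have hTbp : IsPGroup p (Q.map π ⊔ O.map π : Subgroup (M ⧸ C)) :=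
    IsPGroup.to_sup_of_normal_right hQbp hOp
  obtain ⟨T, hT⟩ : ∃ T : Subgroup M, T = (Q.map π ⊔ O.map π).comap π := ⟨_, rfl⟩
  have hTn : T.Normal := by rw [hT]; infer_instance
  have hQT : Q ≤ T := by
    rw [hT]; intro q hq; rw [Subgroup.mem_comap]
    exact (le_sup_left : Q.map π ≤ _) (Subgroup.mem_map_of_mem π hq)
  have hOT : O ≤ T := by
    rw [hT]; intro q hq; rw [Subgroup.mem_comap]
    exact (le_sup_right : O.map π ≤ _) (Subgroup.mem_map_of_mem π hq)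
  have hTC : ∀ g ∈ T, ∃ k : ℕ, g ^ p ^ k ∈ C := by
    intro g hg
    rw [hT, Subgroup.mem_comap] at hg
    obtain ⟨k, hk⟩ := hTbp ⟨π g, hg⟩
    refine ⟨k, ?_⟩
    rw [← hπk, map_pow]
    have := congrArg Subtype.val hk
    rwa [Subgroup.coe_pow, Subgroup.coe_one] at this
  -- (b) the centralizer `L` of `C` modulo `Q`
  obtain ⟨L, hL⟩ : ∃ L : Subgroup M, ∀ g, g ∈ L ↔ ∀ c ∈ C, g * c * g⁻¹ * c⁻¹ ∈ Q :=
    ⟨centModSub C Q hQn, fun g => Iff.rfl⟩
  have hLn : L.Normal := by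
    constructor
    intro g hg m
    rw [hL] at hg ⊢
    intro c hc
    have hc' : m⁻¹ * c * m ∈ C := by
      have := hCn.conj_mem c hc m⁻¹
      rwa [inv_inv] at this
    have e : m * g * m⁻¹ * c * (m * g * m⁻¹)⁻¹ * c⁻¹ =
        m * (g * (m⁻¹ * c * m) * g⁻¹ * (m⁻¹ * c * m)⁻¹) * m⁻¹ := by group
    rw [e]
    exact hQn.conj_mem _ (hg _ hc') m
  have hQL : Q ≤ L := by
    intro q hq
    rw [hL]
    intro c hc
    have e : q * c * q⁻¹ * c⁻¹ = q * (c * q⁻¹ * c⁻¹) := by group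
    rw [e]
    exact Q.mul_mem hq (hQn.conj_mem _ (Q.inv_mem hq) c)
  have hXL : X ≤ L := fun x hx => (hL x).mpr (hXC x hx)
  -- (c) `N := T ⊓ L`
  obtain ⟨N, hN⟩ : ∃ N : Subgroup M, N = T ⊓ L := ⟨_, rfl⟩
  have hNn : N.Normal := by rw [hN]; infer_instance
  have hQN : Q ≤ N := hN ▸ le_inf hQT hQL
  have hXN : X ≤ N := hN ▸ le_inf (hXO.trans hOT) hXL
  have hNC : ∀ g ∈ N, ∃ k : ℕ, g ^ p ^ k ∈ C := by
    intro g hg
    rw [hN] at hg
    exact hTC g hg.1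
  have hNL : ∀ g ∈ N, ∀ c ∈ C, g * c * g⁻¹ * c⁻¹ ∈ Q := by
    intro g hg
    rw [hN] at hg
    exact (hL g).mp hg.2
  -- (d) a Sylow `p`-subgroup `P'` of `N` containing `X`
  obtain ⟨P', hXP'⟩ := (hX.comap_subtype : IsPGroup p (X.subgroupOf N)).exists_le_sylow
  have hQP' : Q.subgroupOf N ≤ (P' : Subgroup ↥N) := by
    have h1 : IsPGroup p ((P' : Subgroup ↥N) ⊔ Q.subgroupOf N : Subgroup ↥N) :=
      IsPGroup.to_sup_of_normal_right P'.isPGroup' hQp.comap_subtype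
    have h2 := P'.is_maximal' h1 le_sup_left
    rw [← h2]; exact le_sup_right
  -- (e) `N = P (N ⊓ C)`
  have hdec : ∀ n : ↥N, ∃ u : ↥N, u ∈ (P' : Subgroup ↥N) ∧ ((u⁻¹ * n : ↥N) : M) ∈ C := by
    intro n
    obtain ⟨f, hf⟩ : ∃ f : ↥N →* M ⧸ C, f = π.comp N.subtype := ⟨_, rfl⟩
    have hfa : ∀ x : ↥N, f x = π (x : M) := fun x => by rw [hf]; rfl
    have hfp : IsPGroup p f.range := by
      rintro ⟨y, ⟨x, rfl⟩⟩
      obtain ⟨k, hk⟩ := hNC x x.2
      refine ⟨k, Subtype.ext ?_⟩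
      rw [Subgroup.coe_pow, Subgroup.coe_one]
      show f x ^ p ^ k = 1
      rw [hfa, ← map_pow]; exact (hπk _).mpr hk
    have htop : ((P'.mapSurjective f.rangeRestrict_surjective : Sylow p f.range) :
        Subgroup f.range) = ⊤ :=
      ((P'.mapSurjective f.rangeRestrict_surjective).is_maximal' (hfp.to_subgroup ⊤) le_top).symm
    have hmem : f.rangeRestrict n ∈
        ((P'.mapSurjective f.rangeRestrict_surjective : Sylow p f.range) : Subgroup f.range) := by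
      rw [htop]; exact Subgroup.mem_top _
    rw [Sylow.coe_mapSurjective] at hmem
    obtain ⟨u, hu, hun⟩ := hmem
    refine ⟨u, hu, ?_⟩
    have h1 : f u = f n := congrArg Subtype.val hun
    rw [hfa, hfa] at h1
    rw [← hπk]
    show π ((u : M)⁻¹ * (n : M)) = 1
    rw [map_mul, map_inv, h1, inv_mul_cancel]
  -- (f) `P'` is normal in `N`
  have hP'n : (P' : Subgroup ↥N).Normal := by
    constructor
    intro x hx n
    obtain ⟨u, hu, huC⟩ := hdec n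
    obtain ⟨z, hz⟩ : ∃ z : ↥N, z = u⁻¹ * n := ⟨_, rfl⟩
    rw [← hz] at huC
    have hq : z * x * z⁻¹ * x⁻¹ ∈ Q.subgroupOf N := by
      rw [Subgroup.mem_subgroupOf]
      have h1 := hNL (x : M) x.2 ((z : M)⁻¹) (C.inv_mem huC)
      have h2 := hQn.conj_mem _ h1 (z : M)
      have e : (z : M) * ((x : M) * (z : M)⁻¹ * (x : M)⁻¹ * (z : M)⁻¹⁻¹) * (z : M)⁻¹ =
          (z : M) * (x : M) * (z : M)⁻¹ * (x : M)⁻¹ := by group
      rw [e] at h2
      exact h2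
    have e2 : n * x * n⁻¹ = u * ((z * x * z⁻¹ * x⁻¹) * x) * u⁻¹ := by
      rw [hz]; group
    rw [e2]
    exact Subgroup.mul_mem _ (Subgroup.mul_mem _ hu (Subgroup.mul_mem _ (hQP' hq) hx))
      (Subgroup.inv_mem _ hu)
  -- every `p`-subgroup of `N` lies in `P'`
  have hall : ∀ R : Subgroup ↥N, IsPGroup p R → R ≤ (P' : Subgroup ↥N) := by
    intro R hR
    have h1 : IsPGroup p (R ⊔ (P' : Subgroup ↥N) : Subgroup ↥N) :=
      IsPGroup.to_sup_of_normal_right hR P'.isPGroup'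
    have h2 := P'.is_maximal' h1 le_sup_right
    rw [← h2]; exact le_sup_left
  -- (g) `P` is normal in `M`
  obtain ⟨P, hP⟩ : ∃ P : Subgroup M, P = (P' : Subgroup ↥N).map N.subtype := ⟨_, rfl⟩
  have hPp : IsPGroup p P := hP ▸ P'.isPGroup'.map N.subtype
  have hPN : P ≤ N := by
    rw [hP]; rintro _ ⟨x, -, rfl⟩; exact x.2
  have hPmem : ∀ x : ↥N, x ∈ (P' : Subgroup ↥N) → (x : M) ∈ P := by
    intro x hx; rw [hP]; exact ⟨x, hx, rfl⟩
  have hPn : P.Normal := by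
    constructor
    intro y hy m
    have hR : IsPGroup p ((P.map (MulAut.conj m).toMonoidHom).subgroupOf N) :=
      (hPp.map _).comap_subtype
    have h1 := hall _ hR
    have h2 : m * y * m⁻¹ ∈ N := hNn.conj_mem y (hPN hy) m
    have h3 : (⟨m * y * m⁻¹, h2⟩ : ↥N) ∈ (P.map (MulAut.conj m).toMonoidHom).subgroupOf N := by
      rw [Subgroup.mem_subgroupOf]
      exact ⟨y, hy, by simp [MulAut.conj_apply]⟩
    exact hPmem _ (h1 h3)
  have hPQ : P ≤ Q := by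
    rw [hQ]
    exact le_sSup (show P ∈ {N : Subgroup M | N.Normal ∧ IsPGroup p N} from ⟨hPn, hPp⟩)
  -- (h) `X ≤ P`
  intro x hx
  exact hPQ (hPmem ⟨x, hXN hx⟩ (hXP' (Subgroup.mem_subgroupOf.mpr hx)))

/-- [T]. -/
theorem pkgT : PkgT.{u} := by
  intro G _ _ p _ M C O X hCO hOM hCn hOn hOC hXO hX hXC
  have hCn' : (C.subgroupOf M).Normal := ⟨fun x hx m => by
    rw [Subgroup.mem_subgroupOf] at hx ⊢
    simpa using hCn m m.2 x hx⟩
  have hOn' : (O.subgroupOf M).Normal := ⟨fun x hx m => by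
    rw [Subgroup.mem_subgroupOf] at hx ⊢
    simpa using hOn m m.2 x hx⟩
  have key := t_core (M := ↥M) (p := p) (C.subgroupOf M) (O.subgroupOf M) (X.subgroupOf M)
    (by
      intro d hd
      rw [Subgroup.mem_subgroupOf] at hd
      obtain ⟨k, hk⟩ := hOC d hd
      refine ⟨k, ?_⟩
      rw [Subgroup.mem_subgroupOf, Subgroup.coe_pow]
      exact hk)
    (by
      intro x hx
      rw [Subgroup.mem_subgroupOf] at hx ⊢
      exact hXO hx)
    hX.comap_subtype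
    (by
      intro x hx c hc
      rw [Subgroup.mem_subgroupOf] at hx hc
      have h1 : (x : G) * (c : G) * (x : G)⁻¹ * (c : G)⁻¹ ∈ Qof p M :=
        hXC (Subgroup.commutator_mem_commutator hx hc)
      obtain ⟨y, hy, hy2⟩ := h1
      have : y = x * c * x⁻¹ * c⁻¹ := Subtype.ext hy2
      rw [← this]; exact hy)
  intro x hx
  exact ⟨⟨x, hOM (hXO hx)⟩, key (Subgroup.mem_subgroupOf.mpr hx), rfl⟩

end Cfsg.Agent.Lib.Helper79.PP
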