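import Mathlib
import Cfsg.Agent.Lib.Helper2.PP.Defs

/-!
S3753 (PP, helper2), package [P2]: the case `p = 2` (commutative Sylow 2-subgroups).
-/

set_option autoImplicit false

namespace Cfsg.Agent.Lib.Helper79.PP

open Cfsg.Agent.Lib.Helper2.PP

universe u

/-- In a finite group `M` with `C_M(O_2(M)) ≤ O_2(M)` and commutative Sylow 2-subgroups, every
2-subgroup lies in `O_2(M)`. -/
theorem two_le_pCore {M : Type u} [Group M] [Finite M]
    (hc : Subgroup.centralizer (Cfsg.pCore 2 M : Set M) ≤ Cfsg.pCore 2 M)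
    (hS : ∀ S : Sylow 2 M, IsMulCommutative (S : Subgroup M)) (R : Subgroup M)
    (hR : IsPGroup 2 R) : R ≤ Cfsg.pCore 2 M := by
  have : Fact (Nat.Prime 2) := ⟨Nat.prime_two⟩
  obtain ⟨S, hRS⟩ := hR.exists_le_sylow
  have hQn : (Cfsg.pCore 2 M).Normal := Subgroup.sSup_normal _ (fun _ h => h.1)
  have hQp : IsPGroup 2 (Cfsg.pCore 2 M) := Cfsg.Agent.Lib.Helper11.pCore_isPGroup' 2 M
  have hQS : Cfsg.pCore 2 M ≤ (S : Subgroup M) := by
    have h1 : IsPGroup 2 ((S : Subgroup M) ⊔ Cfsg.pCore 2 M : Subgroup M) :=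
      IsPGroup.to_sup_of_normal_right S.isPGroup' hQp
    have h2 := S.is_maximal' h1 le_sup_left
    rw [← h2]; exact le_sup_right
  have hSQ : (S : Subgroup M) ≤ Cfsg.pCore 2 M := by
    intro s hs
    apply hc
    rw [Subgroup.mem_centralizer_iff]
    intro q hq
    have := (hS S).is_comm.comm ⟨q, hQS hq⟩ ⟨s, hs⟩
    exact congrArg Subtype.val this
  exact hRS.trans hSQ

/-- `M ≤ N_G(O_p(M))`. -/
theorem le_normalizer_Qof {G : Type u} [Group G] (p : ℕ) (M : Subgroup G) :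
    M ≤ Subgroup.normalizer ((Qof p M : Subgroup G) : Set G) := by
  intro m hm
  rw [Subgroup.mem_normalizer_iff]
  intro h
  constructor
  · intro hh; exact Qof_conj_mem hm hh
  · intro hh
    have := Qof_conj_mem (p := p) (M.inv_mem hm) hh
    have e : m⁻¹ * (m * h * m⁻¹) * m⁻¹⁻¹ = h := by group
    rwa [e] at this

/-- [P2]. -/
theorem pkgTwo : PkgTwo.{u} := by
  intro G _ _ M₁ M₂ hne hP hc1 hc2 hle hS1 hS2
  have key : ∀ (M N : Subgroup G),
      Subgroup.centralizer (Cfsg.pCore 2 ↥N : Set ↥N) ≤ Cfsg.pCore 2 ↥N →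
      (∀ S : Sylow 2 ↥N, IsMulCommutative (S : Subgroup ↥N)) → Qof 2 M ≤ N →
      Qof 2 M ≤ Qof 2 N := by
    intro M N hc hS hMN
    have hR : IsPGroup 2 ((Qof 2 M).subgroupOf N) := (Qof_isPGroup 2 M).comap_subtype
    have h1 := two_le_pCore hc hS _ hR
    intro x hx
    exact ⟨⟨x, hMN hx⟩, h1 (Subgroup.mem_subgroupOf.mpr hx), rfl⟩
  have triv : ∀ M : Subgroup G,
      Subgroup.centralizer (Cfsg.pCore 2 ↥M : Set ↥M) ≤ Cfsg.pCore 2 ↥M → Qof 2 M = ⊥ →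
      M = ⊥ := by
    intro M hc hq
    have h1 : Cfsg.pCore 2 ↥M = ⊥ :=
      (Subgroup.map_eq_bot_iff_of_injective _ M.subtype_injective).mp hq
    rw [Subgroup.eq_bot_iff_forall]
    intro x hx
    have h2 : (⟨x, hx⟩ : ↥M) ∈ Subgroup.centralizer (Cfsg.pCore 2 ↥M : Set ↥M) := by
      rw [Subgroup.mem_centralizer_iff]
      intro q hq'
      rw [h1] at hq'
      have : q = 1 := Subgroup.mem_bot.mp hq'
      rw [this, one_mul, mul_one]
    have h3 := hc h2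
    rw [h1, Subgroup.mem_bot] at h3
    exact congrArg Subtype.val h3
  have hle1 : Qof 2 M₁ ≤ M₁ ⊓ M₂ := le_sup_left.trans hle
  have hle2 : Qof 2 M₂ ≤ M₁ ⊓ M₂ := le_sup_right.trans hle
  have h12 : Qof 2 M₁ ≤ Qof 2 M₂ := key M₁ M₂ hc2 hS2 (hle1.trans inf_le_right)
  have h21 : Qof 2 M₂ ≤ Qof 2 M₁ := key M₂ M₁ hc1 hS1 (hle2.trans inf_le_left)
  have hA : Qof 2 M₁ = Qof 2 M₂ := le_antisymm h12 h21
  by_cases hbot : Qof 2 M₁ = ⊥
  · have t1 := triv M₁ hc1 hbot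
    have t2 := triv M₂ hc2 (hA ▸ hbot)
    exact hne (t1.trans t2.symm)
  · obtain ⟨p1, p2⟩ := hP (Qof 2 M₁) hbot hle1
    have n1 : M₁ ≤ Subgroup.normalizer ((Qof 2 M₁ : Subgroup G) : Set G) := le_normalizer_Qof 2 M₁
    have n2 : M₂ ≤ Subgroup.normalizer ((Qof 2 M₁ : Subgroup G) : Set G) := by
      rw [hA]; exact le_normalizer_Qof 2 M₂
    have e1 := p1 n1
    have e2 := p2 n2
    rw [inf_eq_left.mpr n2] at e1
    rw [inf_eq_left.mpr n1] at e2
    exact hne (e2.trans e1.symm)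

end Cfsg.Agent.Lib.Helper79.PP
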